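/-
S4984, block BR: the orthogonal families of even dimension as H / Z(H).
-/
import Cfsg.Agent.CLAS.DG4.Cnt
import Cfsg.Agent.CLAS.OrthPOrder

set_option autoImplicit false
set_option linter.unusedSectionVars false

namespace CL.DG4.BrPM

open Cfsg CL.Witt CL.Zel Module Submodule CL.Orth CL.OrthE QuadraticMap
open scoped ComplexConjugate

variable {F : Type} [Field F] [Fintype F] [DecidableEq F]

section
variable {V : Type} [AddCommGroup V] [Module F V] [Finite V] {Q : QuadraticForm F V}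

def ee (Q : QuadraticForm F V) : (Form.ofQuad Q).O ≃* O Q := MulEquiv.subgroupCongr (ofQuad_O Q)

theorem mem {z : (Form.ofQuad Q).O} : z ∈ commutator (Form.ofQuad Q).O ↔ ee Q z ∈ commutator (O Q) := by
  rw [← map_commutator_mulEquiv (ee Q)]
  exact (Subgroup.mem_map_iff_mem (ee Q).injective).symm

theorem idx : (commutator (Form.ofQuad Q).O).index = (commutator (O Q)).index := by
  rw [← map_commutator_mulEquiv (ee Q)]
  exact (Subgroup.index_map_of_bijective (ee Q).bijective _).symm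

theorem tgt (hQ : (polarBilin Q).Nondegenerate) (h5 : 5 ≤ finrank F V) : Tgt (Form.ofQuad Q) (commutator _) where
  normal := inferInstance
  idx := by
    have hF : Nat.card F ≠ 2 ∨ finrank F V ≠ 4 := Or.inr (by omega)
    refine Or.inr ⟨rfl, ?_, ?_⟩
    · rintro g ⟨v, hv, hg⟩ m
      have e : ee Q g = Orth.refl Q v := O_ext fun y => (hg y).trans (refl_apply v y).symm
      have h1 : dickson hQ hF (ee Q g) = 1 := Abelianization.commutator_subset_ker _ (mem.1 m)
      rw [e, dickson_apply, dsign_refl hQ hv] at h1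
      exact absurd h1 (by decide)
    · rw [idx]
      rcases Nat.even_or_odd (Fintype.card F) with k | k
      · exact Or.inr ⟨k, OrthE.index_commutator_of_two_eq_zero (two_eq_zero_of_even_card k) hQ hF (by omega)⟩
      · exact Or.inl ⟨k, OrthE.index_commutator_of_two_ne_zero (OrthE.two_ne_zero_of_odd_card k) hQ (by omega)⟩
  cen z hz c := by
    have h1 : (⟨ee Q z, mem.1 hz⟩ : commutator (O Q)) ∈ Subgroup.center _ := Subgroup.mem_center_iff.2 fun g => by
      obtain ⟨g, hg⟩ := g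
      obtain ⟨g, rfl⟩ := (ee Q).surjective g
      exact Subtype.ext (by
        show ee Q g * ee Q z = ee Q z * ee Q g
        rw [← map_mul, ← map_mul, c g (mem.2 hg)])
    rcases (mem_center_commutator_iff hQ h5 _).1 h1 with e | e
    · exact Or.inl ((ee Q).map_eq_one_iff.1 e)
    · exact Or.inr e

theorem noneg (hQ : (polarBilin Q).Nondegenerate) (h5 : 5 ≤ finrank F V) {k : ℕ}
    (hc : Nat.card (O Q) = 2 * (k * Nat.card (pOm (O Q)))) (hk : Odd (Fintype.card F) → k = 2) :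
    ∀ z ∈ commutator (Form.ofQuad Q).O, IsNeg z → z = 1 := by
  intro z hz n
  rcases Nat.even_or_odd (Fintype.card F) with k | k
  · refine Subtype.ext (LinearEquiv.ext fun v => (n v).trans ?_)
    show -v = v
    rw [neg_eq_iff_add_eq_zero, ← two_smul F, two_eq_zero_of_even_card k, zero_smul]
  · have e : ee Q z = negOne Q := O_ext n
    have h1 := card_O_eq_pOm_of_mem hQ h5 (OrthE.two_ne_zero_of_odd_card k) (e ▸ mem.1 hz)
    have : Finite (V ≃ₗ[F] V) := Finite.of_injective _ (DFunLike.coe_injective (F := V ≃ₗ[F] V))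
    have h2 : 0 < Nat.card (O Q) := Nat.card_pos
    rw [hk k] at hc
    omega

end

theorem iso {ι : Type} [Fintype ι] [DecidableEq ι] (Q : QuadraticForm F (ι → F)) :
    Nonempty (POmega F ⇑Q ≃* commutator (Form.ofQuad Q).O ⧸ Subgroup.center (commutator (Form.ofQuad Q).O)) :=
  ⟨(pOmegaEquiv Q).trans (pOmCongr (ee Q).symm)⟩

theorem ty_plus (m : ℕ) : Ty (Form.ofQuad (QPlus m F)) m 0 := by
  have hy : (Form.ofQuad (QPlus m F)).IsHyp (fun i => Pi.single (.inl i) 1) (fun i => Pi.single (.inr i) 1) := by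
    refine ⟨fun i => ?_, fun i => ?_, fun i j => ?_, fun i j => ?_, fun i j => ?_⟩
    · show QPlus m F _ = 0
      simp [QPlus_apply]
    · show QPlus m F _ = 0
      simp [QPlus_apply]
    · exact (polar_QPlus_single_inl m F _ j).trans (by simp)
    · exact (polar_QPlus_single_inr m F _ j).trans (by simp)
    · exact (polar_QPlus_single_inr m F _ j).trans (by simp [Pi.single_apply, eq_comm])
  refine ⟨(Form.nondeg_iff _).2 (QPlus_nondeg m F), Or.inr ⟨rfl, by norm_num, by simp [two_mul]⟩, _, _, hy, fun v hv _ => ?_⟩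
  obtain ⟨h1, h2⟩ := hy.mem_perp_span.1 hv
  ext (i | i)
  · exact ((polar_comm _ _ _).trans (polar_QPlus_single_inr m F v i)).symm.trans (h2 i)
  · exact ((polar_comm _ _ _).trans (polar_QPlus_single_inl m F v i)).symm.trans (h1 i)

theorem ty_minus (m : ℕ) {a b : F}
    (hab : ∀ z₁ z₂ : F, z₁ ^ 2 + a * z₁ * z₂ + b * z₂ ^ 2 = 0 → z₁ = 0 ∧ z₂ = 0) :
    Ty (Form.ofQuad (QMinus m F a b)) m 2 := by
  have p1 : ∀ u i, polar (QMinus m F a b) (Pi.single (.inl (.inl i)) 1) u = u (.inl (.inr i)) := fun u i => by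
    simp [polar_QMinus, Pi.single_apply]
  have p2 : ∀ u i, polar (QMinus m F a b) (Pi.single (.inl (.inr i)) 1) u = u (.inl (.inl i)) := fun u i => by
    simp [polar_QMinus, Pi.single_apply]
  have hy : (Form.ofQuad (QMinus m F a b)).IsHyp (fun i => Pi.single (.inl (.inl i)) 1)
      (fun i => Pi.single (.inl (.inr i)) 1) := by
    refine ⟨fun i => ?_, fun i => ?_, fun i j => ?_, fun i j => ?_, fun i j => ?_⟩
    · show QMinus m F a b _ = 0
      simp [QMinus_apply]
    · show QMinus m F a b _ = 0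
      simp [QMinus_apply]
    · exact (p1 _ i).trans (by simp)
    · exact (p2 _ i).trans (by simp)
    · exact (p1 _ i).trans (by simp [Pi.single_apply])
  refine ⟨(Form.nondeg_iff _).2 (QMinus_nondeg m F hab), Or.inr ⟨rfl, le_rfl, by simp [two_mul]⟩, _, _, hy,
    fun v hv q => ?_⟩
  obtain ⟨h1, h2⟩ := hy.mem_perp_span.1 hv
  have k1 : ∀ i, v (.inl (.inr i)) = 0 := fun i => (p1 v i).symm.trans (h1 i)
  have k2 : ∀ i, v (.inl (.inl i)) = 0 := fun i => (p2 v i).symm.trans (h2 i)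
  have q' : QMinus m F a b v = 0 := q
  rw [QMinus_apply] at q'
  obtain ⟨k3, k4⟩ := hab _ _ (by simpa [k1] using q')
  ext ((i | i) | i)
  · exact k2 i
  · exact k1 i
  · fin_cases i
    exacts [k3, k4]

theorem br_plus {m : ℕ} (hm : 4 ≤ m) :
    ∃ (f : Form (.quad F) (Fin m ⊕ Fin m → F)) (H : Subgroup f.O), Ty f m 0 ∧ Tgt f H ∧
      (m = 5 → Fintype.card F = 3 → ∀ z ∈ H, IsNeg z → z = 1) ∧
      Nonempty (POmega F (quadFormPlus m F) ≃* H ⧸ Subgroup.center H) := by
  have h5 : 5 ≤ finrank F (Fin m ⊕ Fin m → F) := by simp; omega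
  refine ⟨_, _, ty_plus m, tgt (QPlus_nondeg m F) h5, fun e q => noneg (QPlus_nondeg m F) h5
    (card_pOm_QPlus (by omega)) fun _ => ?_, iso (QPlus m F)⟩
  rw [e, q]; norm_num

theorem br_minus {m : ℕ} (hm : 3 ≤ m) {a b : F}
    (hab : ∀ z₁ z₂ : F, z₁ ^ 2 + a * z₁ * z₂ + b * z₂ ^ 2 = 0 → z₁ = 0 ∧ z₂ = 0) :
    ∃ (f : Form (.quad F) ((Fin m ⊕ Fin m) ⊕ Fin 2 → F)) (H : Subgroup f.O), Ty f m 2 ∧ Tgt f H ∧
      (m = 3 → ∀ z ∈ H, IsNeg z → z = 1) ∧
      Nonempty (POmega F (quadFormMinus m F a b) ≃* H ⧸ Subgroup.center H) := by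
  have h5 : 5 ≤ finrank F ((Fin m ⊕ Fin m) ⊕ Fin 2 → F) := by simp; omega
  refine ⟨_, _, ty_minus m hab, tgt (QMinus_nondeg m F hab) h5, fun e => noneg (QMinus_nondeg m F hab) h5
    (card_pOm_QMinus (by omega) hab) fun o => ?_, iso (QMinus m F a b)⟩
  obtain ⟨k, hk⟩ := o
  rw [e, hk, show (2 * k + 1) ^ (3 + 1) + 1 = 2 + 4 * (4 * k ^ 4 + 8 * k ^ 3 + 6 * k ^ 2 + 2 * k) by ring,
    Nat.gcd_add_mul_left_right]
  norm_num

end CL.DG4.BrPM
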