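/-
S4984, block FamX: degrees of the point characters.
-/
import Cfsg.Agent.CLAS.DG4.PT

set_option autoImplicit false
set_option linter.unusedSectionVars false

namespace CL.DG4.FamX2

open Cfsg CL.Witt CL.Zel Module Submodule
open scoped ComplexConjugate

variable {F V : Type} [Field F] [Fintype F] [DecidableEq F] [AddCommGroup V] [Module F V]
  [Finite V] {T : FormType F} {f : Form T V} {r e a : ℕ}

/-- Degrees of the point characters used as `ψ`. -/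
theorem pt_deg (h : Ty f r e) {q n : ℕ} (hq : Fintype.card F = q)
    (hn : (r = 1 ∧ e = 1 ∧ n = q) ∨ (r = 1 ∧ e = 2 ∧ n = q ^ 2) ∨ (r = 2 ∧ e = 0 ∧ n = q ^ 2) ∨
      (r = 3 ∧ e = 0 ∧ n = q ^ 2 * (q ^ 2 + 1)) ∨ (r = 3 ∧ e = 0 ∧ n = q * (q ^ 2 + q + 1)) ∨
      (r = 2 ∧ e = 2 ∧ n = q ^ 2 * (q ^ 2 + 1))) :
    ∃ ψ : f.O → ℂ, IsIrrCharacter _ ψ ∧ ψ 1 = n ∧ PtC f ψ := by
  have q2 : 1 < q := hq ▸ Fintype.one_lt_card
  have q1 : 0 < q - 1 := by omega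
  have e2 : q ^ 2 - 1 = (q - 1) * (q + 1) := by
    obtain ⟨m, rfl⟩ : ∃ m, q = m + 1 := ⟨q - 1, by omega⟩
    exact Nat.sub_eq_of_eq_add (by rw [Nat.add_sub_cancel]; ring)
  have e3 : q ^ 3 - 1 = (q - 1) * (q ^ 2 + q + 1) := by
    obtain ⟨m, rfl⟩ : ∃ m, q = m + 1 := ⟨q - 1, by omega⟩
    exact Nat.sub_eq_of_eq_add (by rw [Nat.add_sub_cancel]; ring)
  rcases hn with ⟨rfl, rfl, rfl⟩ | ⟨rfl, rfl, rfl⟩ | ⟨rfl, rfl, rfl⟩ | ⟨rfl, rfl, rfl⟩ | ⟨rfl, rfl, rfl⟩ |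
    ⟨rfl, rfl, rfl⟩
  · simpa only [hq, pow_one] using pt2 h le_rfl
  · simpa only [hq] using pt2 h one_le_two
  all_goals obtain ⟨χf, χg, df, dg, k, i1, i2, p1, p2, d1, d2, h1, h2, -⟩ := pt3 h (by norm_num) hq
  · refine ⟨χg, i2, d2.trans (congrArg _ (Nat.eq_of_mul_eq_mul_right (by positivity) (h2.trans ?_))), p2⟩
    norm_num; ring
  · refine ⟨χg, i2, d2.trans (congrArg _ (Nat.eq_of_mul_eq_mul_right (by positivity) (h2.trans ?_))), p2⟩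
    norm_num [e2]; ring
  · refine ⟨χf, i1, d1.trans (congrArg _ (Nat.eq_of_mul_eq_mul_right (by positivity) (h1.trans ?_))), p1⟩
    norm_num [e3]; ring
  · refine ⟨χf, i1, d1.trans (congrArg _ (Nat.eq_of_mul_eq_mul_right (by positivity) (h1.trans ?_))), p1⟩
    norm_num [e2]; ring

end CL.DG4.FamX2
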