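/-
S4984, block NRc: polynomials over the field with two elements, centralisers of elliptic elements.
-/
import Cfsg.Agent.CLAS.DG4.Def

set_option autoImplicit false
set_option linter.unusedSectionVars false

namespace CL.DG4.NRc2

open Cfsg CL.Witt CL.Zel Module Submodule Polynomial

variable {F : Type} [Field F] [Fintype F] [DecidableEq F]

/-- `X⁴ + X³ + X² + X + 1` -/
noncomputable def p5 (F : Type) [Field F] : F[X] := X ^ 4 + X ^ 3 + X ^ 2 + X + 1
/-- `X⁴ + X + 1` -/
noncomputable def pa (F : Type) [Field F] : F[X] := X ^ 4 + X + 1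
/-- `X⁴ + X³ + 1` -/
noncomputable def pb (F : Type) [Field F] : F[X] := X ^ 4 + X ^ 3 + 1

theorem monic5 : (p5 F).Monic := by unfold p5; monicity!
theorem monica : (pa F).Monic := by unfold pa; monicity!
theorem monicb : (pb F).Monic := by unfold pb; monicity!
theorem deg5 : (p5 F).natDegree = 4 := by unfold p5; compute_degree!
theorem dega : (pa F).natDegree = 4 := by unfold pa; compute_degree!
theorem degb : (pb F).natDegree = 4 := by unfold pb; compute_degree!
theorem c5 : (p5 F).coeff 0 ≠ 0 := by simp [p5]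
theorem ca : (pa F).coeff 0 ≠ 0 := by simp [pa]
theorem cb : (pb F).coeff 0 ≠ 0 := by simp [pb]

theorem ne5a : p5 F ≠ pa F := fun e => by
  have := congrArg (coeff · 2) e
  simp [p5, pa, coeff_X, coeff_one] at this
theorem ne5b : p5 F ≠ pb F := fun e => by
  have := congrArg (coeff · 2) e
  simp [p5, pb, coeff_X, coeff_one] at this
theorem neab : pa F ≠ pb F := fun e => by
  have := congrArg (coeff · 1) e
  simp [pa, pb, coeff_X, coeff_one] at this

theorem expand {p : F[X]} {n : ℕ} (hm : p.Monic) (hd : p.natDegree = n) :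
    p = X ^ n + ∑ i ∈ Finset.range n, C (p.coeff i) * X ^ i := hd ▸ hm.as_sum

section two
variable (hq : Fintype.card F = 2)
include hq

theorem el (x : F) : x = 0 ∨ x = 1 := by
  by_contra h
  rw [not_or] at h
  have := Finset.card_le_univ ({0, 1, x} : Finset F)
  rw [Finset.card_eq_three.2 ⟨0, 1, x, zero_ne_one, Ne.symm h.1, Ne.symm h.2, rfl⟩, hq] at this
  omega

theorem two : (2 : F) = 0 := by
  rcases el hq 2 with h | h
  · exact h
  · exact absurd (by linear_combination h : (1 : F) = 0) one_ne_zero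

theorem twoP : (2 : F[X]) = 0 := by
  have := congrArg C (two hq)
  rwa [map_zero, map_ofNat] at this

theorem l1 {p : F[X]} (hm : p.Monic) (hd : p.natDegree = 1) : p = X ∨ p = X + 1 := by
  have e := expand hm hd
  rcases el hq (p.coeff 0) with h | h <;> simp [h] at e <;> simp [e]

theorem l2 {p : F[X]} (hm : p.Monic) (hd : p.natDegree = 2) :
    p.IsRoot 0 ∨ p.IsRoot 1 ∨ p = X ^ 2 + X + 1 := by
  have e := expand hm hd
  have t := two hq
  rcases el hq (p.coeff 0) with h | h <;> rcases el hq (p.coeff 1) with k | k <;>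
    simp only [Finset.sum_range_succ, Finset.range_zero, Finset.sum_empty, h, k, map_zero, map_one] at e
  · left; rw [e]; simp
  · left; rw [e]; simp
  · right; left; rw [e]; simp; linear_combination t
  · right; right; rw [e]; ring

theorem l4 {p : F[X]} (hm : p.Monic) (hd : p.natDegree = 4) :
    p.IsRoot 0 ∨ p.IsRoot 1 ∨ p = (X ^ 2 + X + 1) * (X ^ 2 + X + 1) ∨ p = p5 F ∨ p = pa F ∨ p = pb F := by
  have e := expand hm hd
  have t := two hq
  have t' := twoP hq
  rcases el hq (p.coeff 0) with h | h
  · left; rwa [IsRoot, ← coeff_zero_eq_eval_zero]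
  right
  rcases el hq (p.coeff 1) with k | k <;> rcases el hq (p.coeff 2) with l | l <;>
    rcases el hq (p.coeff 3) with m | m <;>
    simp only [Finset.sum_range_succ, Finset.range_zero, Finset.sum_empty, h, k, l, m, map_zero, map_one] at e
  · left; rw [e]; simp; linear_combination t
  · right; right; right; right; rw [e, pb]; ring
  · right; left; rw [e]; linear_combination (-X ^ 3 - X ^ 2 - X) * t'
  · left; rw [e]; simp; linear_combination 2 * t
  · right; right; right; left; rw [e, pa]; ring
  · left; rw [e]; simp; linear_combination 2 * t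
  · left; rw [e]; simp; linear_combination 2 * t
  · right; right; left; rw [e, p5]; ring

theorem irr_list {p : F[X]} (hp : Irreducible p) (hm : p.Monic) (hd : p.natDegree ∣ 4) :
    p = X ∨ p = X + 1 ∨ p = X ^ 2 + X + 1 ∨ p = p5 F ∨ p = pa F ∨ p = pb F := by
  have nr : ∀ x, p.IsRoot x → p.natDegree = 1 := fun x h =>
    natDegree_eq_of_degree_eq_some (degree_eq_one_of_irreducible_of_root hp h)
  have : p.natDegree = 1 ∨ p.natDegree = 2 ∨ p.natDegree = 4 := by
    have := Nat.le_of_dvd (by norm_num) hd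
    generalize p.natDegree = n at *
    interval_cases n <;> omega
  rcases this with h | h | h
  · exact (l1 hq hm h).imp_right Or.inl
  · rcases l2 hq hm h with k | k | k
    · have := nr _ k; omega
    · have := nr _ k; omega
    · exact .inr (.inr (.inl k))
  · rcases l4 hq hm h with k | k | k | k
    · have := nr _ k; omega
    · have := nr _ k; omega
    · have hu : IsUnit (X ^ 2 + X + 1 : F[X]) := (hp.isUnit_or_isUnit k).elim id id
      have h0 := natDegree_eq_zero_of_isUnit hu
      rw [show (X ^ 2 + X + 1 : F[X]).natDegree = 2 by compute_degree!] at h0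
      omega
    · exact .inr (.inr (.inr k))

theorem irr_of {p : F[X]} (hm : p.Monic) (hd : p.natDegree = 4) (h0 : ¬ p.IsRoot 0) (h1 : ¬ p.IsRoot 1)
    {u r : F[X]} (e : p = (X ^ 2 + X + 1) * u + r) (r0 : r ≠ 0) (r1 : r.natDegree < 2) : Irreducible p := by
  refine (hm.irreducible_iff_lt_natDegree_lt fun e => by rw [e] at hd; simp at hd).2 fun q qm hq' dv => ?_
  rw [hd, Finset.mem_Ioc] at hq'
  have : q.natDegree = 1 ∨ q.natDegree = 2 := by omega
  rcases this with h | h
  · rcases l1 hq qm h with rfl | rfl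
    · exact h0 (IsRoot.dvd (by simp) dv)
    · exact h1 (IsRoot.dvd (by simp; linear_combination two hq) dv)
  · rcases l2 hq qm h with k | k | rfl
    · exact h0 (k.dvd dv)
    · exact h1 (k.dvd dv)
    · rw [e, dvd_add_right (dvd_mul_right _ _)] at dv
      have := natDegree_le_of_dvd dv r0
      omega

theorem irr5 : Irreducible (p5 F) :=
  irr_of hq monic5 deg5 (by simp [p5]) (by
    simp only [p5, IsRoot, eval_add, eval_pow, eval_X, eval_one]
    exact fun e => one_ne_zero (by linear_combination e - 2 * two hq : (1 : F) = 0)) (u := X ^ 2) (r := X + 1)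
    (by rw [p5]; ring) (by simpa using X_add_C_ne_zero (1 : F)) (by compute_degree!)

theorem irra : Irreducible (pa F) :=
  irr_of hq monica dega (by simp [pa]) (by
    simp only [pa, IsRoot, eval_add, eval_pow, eval_X, eval_one]
    exact fun e => one_ne_zero (by linear_combination e - two hq : (1 : F) = 0)) (u := X ^ 2 + X) (r := 1)
    (by rw [pa]; linear_combination (-X ^ 3 - X ^ 2) * twoP hq) one_ne_zero (by simp)

theorem irrb : Irreducible (pb F) :=
  irr_of hq monicb degb (by simp [pb]) (by
    simp only [pb, IsRoot, eval_add, eval_pow, eval_X, eval_one]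
    exact fun e => one_ne_zero (by linear_combination e - two hq : (1 : F) = 0)) (u := X ^ 2 + 1) (r := X)
    (by rw [pb]; linear_combination (-X ^ 2 - X) * twoP hq) X_ne_zero (by simp)

/-- the three points of degree four -/
noncomputable def q5 : IP F := ⟨p5 F, monic5, irr5 hq, c5⟩
/-- the three points of degree four -/
noncomputable def qa : IP F := ⟨pa F, monica, irra hq, ca⟩
/-- the three points of degree four -/
noncomputable def qb : IP F := ⟨pb F, monicb, irrb hq, cb⟩

theorem irr4 {p : F[X]} (hp : Irreducible p) (hm : p.Monic) (hd : p.natDegree = 4) :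
    p = p5 F ∨ p = pa F ∨ p = pb F := by
  rcases irr_list hq hp hm (hd ▸ dvd_rfl) with rfl | rfl | rfl | h
  · simp at hd
  · rw [show (X + 1 : F[X]).natDegree = 1 by compute_degree!] at hd; omega
  · rw [show (X ^ 2 + X + 1 : F[X]).natDegree = 2 by compute_degree!] at hd; omega
  · exact h

theorem card4 : Nat.card {p : IP F // p.deg F = 4} = 3 := by
  classical
  have e : ∀ p : IP F, p.deg F = 4 ↔ p ∈ ({q5 hq, qa hq, qb hq} : Finset (IP F)) := fun p => by
    simp only [Finset.mem_insert, Finset.mem_singleton, Subtype.ext_iff]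
    refine ⟨irr4 hq p.2.2.1 p.2.1, ?_⟩
    rintro (h | h | h) <;> rw [IP.deg, h]
    exacts [deg5, dega, degb]
  rw [Nat.subtype_card _ fun p => (e p).symm]
  exact Finset.card_eq_three.2 ⟨_, _, _, fun h => ne5a (congrArg Subtype.val h),
    fun h => ne5b (congrArg Subtype.val h), fun h => neab (congrArg Subtype.val h), rfl⟩

end two

/-- every non-zero vector is cyclic -/
theorem cyc {V : Type} [AddCommGroup V] [Module F V] [Finite V] {A : End F V} {p : F[X]} (hp : Irreducible p)
    (hd : p.natDegree = finrank F V) (hA : aeval A p = 0) {v : V} (hv : v ≠ 0) (w : V) :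
    ∃ f : F[X], aeval A f v = w := by
  let φ : degreeLT F (finrank F V) →ₗ[F] V :=
    (LinearMap.applyₗ v ∘ₗ (aeval A).toLinearMap) ∘ₗ (degreeLT F (finrank F V)).subtype
  have inj : Function.Injective φ := (injective_iff_map_eq_zero _).2 fun f hf => by
    by_contra n
    have n' : f.1 ≠ 0 := fun e => n (Subtype.ext e)
    have lt : f.1.natDegree < p.natDegree := ((natDegree_lt_iff_degree_lt n').2 (mem_degreeLT.1 f.2)).trans_eq hd.symm
    obtain ⟨a, b, e⟩ := hp.coprime_iff_not_dvd.2 fun d => absurd (natDegree_le_of_dvd d n') lt.not_ge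
    have := congrArg (fun q => aeval A q v) e
    have hf' : aeval A f.1 v = 0 := hf
    simp [hA, hf'] at this
    exact hv this.symm
  have sj := (LinearMap.injective_iff_surjective_of_finrank_eq_finrank (by
    rw [(degreeLTEquiv F _).finrank_eq]; simp)).1 inj
  obtain ⟨f, e⟩ := sj w
  exact ⟨f.1, e⟩

/-- the centraliser of an elliptic element acts regularly on the non-zero vectors -/
theorem cent {a : ℕ} (ha : a ≠ 0) (g : GL (Fin a) F) {p : F[X]} (hp : Irreducible p) (hd : p.natDegree = a)
    (hA : aeval (Matrix.toLin' g.1) p = 0) :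
    Nat.card (Subgroup.centralizer ({g} : Set (GL (Fin a) F))) = Fintype.card F ^ a - 1 := by
  set A := Matrix.toLin' g.1 with hAd
  have hd' : p.natDegree = finrank F (Fin a → F) := by simpa using hd
  have cm : ∀ (B : End F (Fin a → F)), Commute B A → ∀ f : F[X], ∀ v, B (aeval A f v) = aeval A f (B v) :=
    fun B h f v => by
      have : Commute B (aeval A f) := by
        rw [aeval_eq_sum_range]
        exact Commute.sum_right _ _ _ fun i _ => (h.pow_right i).smul_right _
      exact LinearMap.congr_fun this.eq v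
  have : Nonempty (Fin a) := ⟨⟨0, Nat.pos_of_ne_zero ha⟩⟩
  obtain ⟨v, hv⟩ := exists_ne (0 : Fin a → F)
  have cc : ∀ h : Subgroup.centralizer ({g} : Set (GL (Fin a) F)), Commute (Matrix.toLin' h.1.1) A := fun h => by
    have := congrArg (fun x : GL (Fin a) F => Matrix.toLin' x.1) (Subgroup.mem_centralizer_singleton_iff.1 h.2)
    simp only [Units.val_mul, Matrix.toLin'_mul] at this
    exact this
  have ne : ∀ h : GL (Fin a) F, Matrix.toLin' h.1 v ≠ 0 := fun h e => hv (by
    have := congrArg (Matrix.toLin' (h⁻¹).1) e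
    rwa [← LinearMap.comp_apply, ← Matrix.toLin'_mul, Units.inv_mul, Matrix.toLin'_one, map_zero] at this)
  have b : Function.Bijective fun h : Subgroup.centralizer ({g} : Set (GL (Fin a) F)) =>
      (⟨Matrix.toLin' h.1.1 v, ne h⟩ : {w : Fin a → F // w ≠ 0}) := by
    refine ⟨fun h k e => Subtype.ext (Units.ext (Matrix.toLin'.injective (LinearMap.ext fun w => ?_))),
      fun ⟨w, hw⟩ => ?_⟩
    · obtain ⟨f, rfl⟩ := cyc hp hd' hA hv w
      rw [cm _ (cc h), cm _ (cc k), show Matrix.toLin' h.1.1 v = Matrix.toLin' k.1.1 v from congrArg Subtype.val e]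
    · obtain ⟨f, rfl⟩ := cyc hp hd' hA hv w
      have c1 : Commute (aeval A f) A := by
        rw [aeval_eq_sum_range]
        exact Commute.sum_left _ _ _ fun i _ => ((Commute.refl A).pow_left i).smul_left _
      have sj : Function.Surjective (aeval A f) := fun y => by
        obtain ⟨k, rfl⟩ := cyc hp hd' hA hw y
        exact ⟨aeval A k v, cm _ c1 k v⟩
      have u : IsUnit (LinearMap.toMatrix' (aeval A f)) := by
        rw [← Matrix.mulVec_surjective_iff_isUnit]
        intro y
        obtain ⟨x, rfl⟩ := sj y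
        exact ⟨x, by rw [← Matrix.toLin'_apply, Matrix.toLin'_toMatrix']⟩
      refine ⟨⟨u.unit, Subgroup.mem_centralizer_singleton_iff.2 (Units.ext (Matrix.toLin'.injective ?_))⟩,
        Subtype.ext ?_⟩
      · simp only [Units.val_mul, Matrix.toLin'_mul, IsUnit.unit_spec, Matrix.toLin'_toMatrix']
        exact c1.eq
      · simp only [IsUnit.unit_spec, Matrix.toLin'_toMatrix']
  rw [Nat.card_eq_of_bijective _ b, Nat.card_eq_fintype_card, Fintype.card_subtype_compl]
  simp

theorem cent15 (hq : Fintype.card F = 2) (g : GL (Fin 4) F) {p : F[X]} (hp : Irreducible p)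
    (hd : p.natDegree = 4) (hA : aeval (Matrix.toLin' g.1) p = 0) :
    Nat.card (Subgroup.centralizer ({g} : Set (GL (Fin 4) F))) = 15 := by
  rw [cent (by norm_num) g hp hd hA, hq]; rfl

section inv
variable {a : ℕ} {g : GL (Fin a) F}

theorem mul_inv' (g : GL (Fin a) F) : Matrix.toLin' (g⁻¹).1 * Matrix.toLin' g.1 = 1 := by
  rw [End.mul_eq_comp, ← Matrix.toLin'_mul, Units.inv_mul, Matrix.toLin'_one]; rfl

theorem pw {R : Type*} [Ring R] {x y : R} (h : y * x = 1) :
    y ^ 4 * x = y ^ 3 ∧ y ^ 4 * x ^ 2 = y ^ 2 ∧ y ^ 4 * x ^ 3 = y ∧ y ^ 4 * x ^ 4 = 1 := by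
  have k : ∀ n, y ^ (n + 1) * x = y ^ n := fun n => by rw [pow_succ, mul_assoc, h, mul_one]
  have k2 : y ^ 4 * x ^ 2 = y ^ 2 := by rw [sq x, ← mul_assoc, k, k]
  have k3 : y ^ 4 * x ^ 3 = y := by rw [pow_succ x, ← mul_assoc, k2, k, pow_one]
  exact ⟨k 3, k2, k3, by rw [pow_succ x, ← mul_assoc, k3, h]⟩

theorem inv5 (h : aeval (Matrix.toLin' g.1) (p5 F) = 0) : aeval (Matrix.toLin' (g⁻¹).1) (p5 F) = 0 := by
  obtain ⟨a1, a2, a3, a4⟩ := pw (mul_inv' g)
  have := congrArg (Matrix.toLin' (g⁻¹).1 ^ 4 * ·) h
  simp only [p5, map_add, map_pow, aeval_X, map_one, mul_add, a1, a2, a3, a4, mul_one, mul_zero] at this ⊢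
  rw [← this]; abel

theorem inva (h : aeval (Matrix.toLin' g.1) (pa F) = 0) : aeval (Matrix.toLin' (g⁻¹).1) (pb F) = 0 := by
  obtain ⟨a1, a2, a3, a4⟩ := pw (mul_inv' g)
  have := congrArg (Matrix.toLin' (g⁻¹).1 ^ 4 * ·) h
  simp only [pa, pb, map_add, map_pow, aeval_X, map_one, mul_add, a1, a4, mul_one, mul_zero] at this ⊢
  rw [← this]; abel

theorem invb (h : aeval (Matrix.toLin' g.1) (pb F) = 0) : aeval (Matrix.toLin' (g⁻¹).1) (pa F) = 0 := by
  obtain ⟨a1, a2, a3, a4⟩ := pw (mul_inv' g)
  have := congrArg (Matrix.toLin' (g⁻¹).1 ^ 4 * ·) h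
  simp only [pa, pb, map_add, map_pow, aeval_X, map_one, mul_add, a3, a4, mul_one, mul_zero] at this ⊢
  rw [← this]; abel

end inv

end CL.DG4.NRc2
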