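/-
S4984, block NRa, part p: a primitive function vanishing on the classes killed by an irreducible
polynomial vanishes.
-/
import Cfsg.Agent.CLAS.DG4.Def
import Cfsg.Agent.KSG.GLnElemDiv

set_option autoImplicit false
set_option linter.unusedSectionVars false

namespace CL.DG4.NRp

open Cfsg CL.Witt CL.Zel CL.GLn Module Submodule Polynomial

variable {F : Type} [Field F] [Fintype F] [DecidableEq F] {a : ℕ}
  {V W Y : Type} [AddCommGroup V] [Module F V] [Finite V] [AddCommGroup W] [Module F W] [Finite W]
  [AddCommGroup Y] [Module F Y] [Finite Y]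
  {i : W →ₗ[F] V} {π : V →ₗ[F] Y} {B : End F W} {A A' : End F V} {C : End F Y}

theorem ker_mul (h : Ses i π B A C) {p : F[X]} (hp : LinearMap.range i = LinearMap.ker (aeval A p))
    (f : F[X]) : LinearMap.ker (aeval A (f * p)) = (LinearMap.ker (aeval C f)).comap π := by
  ext v
  rw [mul_comm, map_mul, LinearMap.mem_ker, Module.End.mul_apply, ← LinearMap.mem_ker, ← hp, h.ex,
    LinearMap.mem_ker, intertwine_aeval π h.right, Submodule.mem_comap, LinearMap.mem_ker]

theorem kd_mul {f p : F[X]} (h : IsCoprime f p) (A : End F V) :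
    kd A (f * p) = kd A f + kd A p := by
  have h1 := Submodule.finrank_sup_add_finrank_inf_eq (LinearMap.ker (aeval A f))
    (LinearMap.ker (aeval A p))
  rw [sup_ker_aeval_eq_ker_aeval_mul_of_coprime A h,
    disjoint_iff.1 (disjoint_ker_aeval_of_isCoprime A h), finrank_bot, add_zero] at h1
  exact h1

theorem simil (h : Ses i π B A C) (h' : Ses i π B A' C) {p : F[X]} (hm : p.Monic)
    (hi : Irreducible p) (hp : LinearMap.range i = LinearMap.ker (aeval A p))
    (hp' : LinearMap.range i = LinearMap.ker (aeval A' p)) : Simil A A' := by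
  have h1 : ∀ f, kd A (f * p) = kd A' (f * p) := fun f => by
    rw [kd, kd, ker_mul h hp, ker_mul h' hp']
  have h2 : kd A p = kd A' p := by rw [kd, kd, ← hp, ← hp']
  refine simil_of_kd_pow fun p' hm' hi' k => ?_
  by_cases hpp : p' = p
  · subst hpp
    cases k with
    | zero => rw [kd, kd, pow_zero, map_one, map_one]
    | succ k => rw [pow_succ]; exact h1 _
  · have h3 : IsCoprime (p' ^ k) p :=
      (isCoprime_of_monic_irreducible_ne hm' hi' hm hi hpp).pow_left
    have h4 := h1 (p' ^ k)
    rw [kd_mul h3, kd_mul h3, h2] at h4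
    omega

theorem ses_add (h : Ses i π B A C) (X : Y →ₗ[F] W) : Ses i π B (A + i ∘ₗ X ∘ₗ π) C := by
  have h0 : ∀ w, π (i w) = 0 := fun w => by
    rw [← LinearMap.mem_ker, ← h.ex]; exact ⟨w, rfl⟩
  exact ⟨h.inj, h.surj, h.ex, fun w => by simp [h0, h.left], fun v => by simp [h0, h.right]⟩

theorem step {g : Cls F → ℂ} (hc : Cusp g) {p : F[X]} (hm : p.Monic) (hi : Irreducible p)
    (h0 : ∀ A : End F V, aeval A p = 0 → g (cls A) = 0) (n : ℕ) :
    ∀ A : End F V, kd A p ≠ 0 → finrank F V - kd A p ≤ n → g (cls A) = 0 := by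
  classical
  induction n with
  | zero =>
    intro A _ h2
    refine h0 A ((kd_eq_finrank_iff A p).1 (le_antisymm (Submodule.finrank_le _) (by omega)))
  | succ n ih =>
    intro A h1 h2
    by_cases h3 : finrank F V - kd A p ≤ n
    · exact ih A h1 h3
    set S := LinearMap.ker (aeval A p) with hS
    have hinv : ∀ v ∈ S, A v ∈ S := fun v hv => by
      rw [hS, LinearMap.mem_ker] at hv ⊢
      rw [← intertwine_aeval A (fun _ => rfl), hv, map_zero]
    have hs := ses_sub hinv
    have hr : LinearMap.range S.subtype = S := S.range_subtype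
    have h4 := hs.sum_eq g
    have h5 := hs.finrank_eq
    have h6 : finrank F S = kd A p := rfl
    rw [hc _ _ (by rw [dim_cls]; omega) (by rw [dim_cls]; omega), mul_zero] at h4
    by_contra hne
    have h7 : ∀ X : (V ⧸ S) →ₗ[F] S, g (cls (A + S.subtype ∘ₗ X ∘ₗ S.mkQ)) =
        (if g (cls (A + S.subtype ∘ₗ X ∘ₗ S.mkQ)) = 0 then 0 else 1 : ℕ) * g (cls A) := by
      intro X
      split_ifs with h8
      · simp [h8]
      · have hX := ses_add hs X
        have hle : S ≤ LinearMap.ker (aeval (A + S.subtype ∘ₗ X ∘ₗ S.mkQ) p) := fun v hv => by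
          have e1 := intertwine_aeval S.subtype (fun w => (hX.left w).symm) p ⟨v, hv⟩
          have e2 := intertwine_aeval S.subtype (fun w => (hs.left w).symm) p ⟨v, hv⟩
          rw [LinearMap.mem_ker]
          exact e1.symm.trans (e2.trans hv)
        have h9 : finrank F S ≤ kd (A + S.subtype ∘ₗ X ∘ₗ S.mkQ) p := Submodule.finrank_mono hle
        have h10 : kd (A + S.subtype ∘ₗ X ∘ₗ S.mkQ) p ≤ finrank F S := by
          by_contra h11
          exact h8 (ih _ (by omega) (by omega))
        have h12 := Submodule.eq_of_le_of_finrank_le hle h10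
        rw [Nat.cast_one, one_mul,
          cls_eq_iff.2 (simil hX hs hm hi (hr.trans h12) (hr.trans hS))]
    rw [Finset.sum_congr rfl fun X _ => h7 X, ← Finset.sum_mul, mul_eq_zero, ← Nat.cast_sum,
      Nat.cast_eq_zero, Finset.sum_eq_zero_iff] at h4
    rcases h4 with h4 | h4
    · have := h4 0 (Finset.mem_univ _)
      simp [hne] at this
    · exact hne h4

theorem prim_ext {g : Cls F → ℂ} (hc : Cusp g)
    (h0 : ∀ (A : End F (Fin a → F)) (p : F[X]), Irreducible p → aeval A p = 0 → g (cls A) = 0)
    (A : End F (Fin a → F)) : g (cls A) = 0 := by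
  rcases subsingleton_or_nontrivial (End F (Fin a → F)) with hs | hs
  · exact h0 A X irreducible_X (Subsingleton.elim _ _)
  obtain ⟨p, hm, hi, r, hr⟩ := exists_monic_irreducible_factor (minpoly F A) (minpoly.not_isUnit F A)
  refine step hc hm hi (fun A h => h0 A p hi h) _ A (fun h1 => ?_) le_rfl
  have h2 := (kd_eq_zero_iff A p).1 h1
  have h3 := minpoly.aeval F A
  rw [hr, map_mul, h2.mul_right_eq_zero] at h3
  have h4 := minpoly.dvd F A h3
  have h5 : r ≠ 0 := fun h => minpoly.ne_zero (LinearMap.isIntegral A) (by rw [hr, h, mul_zero])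
  rw [hr] at h4
  exact hi.not_isUnit (isUnit_of_dvd_one ((mul_dvd_mul_iff_right h5).1 (by simpa using h4)))

end CL.DG4.NRp
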