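/-
S4984, block NT: the two small lemmas.
-/
import Cfsg.Agent.CLAS.DG4.Def

set_option autoImplicit false

namespace CL.DG4.NT2

theorem nt8 {q r e a D : ℕ} (hq : Odd q) (hq2 : 2 ≤ q) (ha : 2 ≤ a) (har : a ≤ r) (h2 : r ≤ 2 * a)
    (hD : D * (q ^ a - 1) = DD q r e a) : 8 ∣ D := by
  obtain ⟨i, hi, k⟩ : ∃ i < a, q ^ a - 1 ∣ q ^ (r - i) - 1 := by
    rcases h2.eq_or_lt with h | h
    · exact ⟨0, by omega, Nat.pow_sub_one_dvd_pow_sub_one q ⟨2, by omega⟩⟩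
    · exact ⟨r - a, by omega, by rw [show r - (r - a) = a by omega]⟩
  obtain ⟨j, hj, ne⟩ : ∃ j < a, i ≠ j := ⟨if i = 0 then 1 else 0, by split_ifs <;> omega, by split_ifs <;> omega⟩
  have e1 : ∀ n, 2 ∣ q ^ n + 1 := fun n => (hq.pow.add_one).two_dvd
  have e2 : ∀ n, 2 ∣ q ^ n - 1 := fun n => (Nat.Odd.sub_odd hq.pow odd_one).two_dvd
  have d := Finset.prod_dvd_prod_of_subset {i, j} (Finset.range a) (fun i => np q (r - i) e) (by
    intro x hx; simp only [Finset.mem_insert, Finset.mem_singleton] at hx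
    rcases hx with rfl | rfl <;> simpa)
  rw [Finset.prod_pair ne, ← DD, ← hD] at d
  have p : 0 < q ^ a - 1 := Nat.sub_pos_of_lt (Nat.one_lt_pow (by omega) (by omega))
  refine Nat.dvd_of_mul_dvd_mul_right p (dvd_trans ?_ d)
  rw [show 8 * (q ^ a - 1) = (q ^ a - 1) * 2 * (2 * 2) by ring]
  exact mul_dvd_mul (mul_dvd_mul k (e1 _)) (mul_dvd_mul (e2 _) (e1 _))

theorem ord_facts {q a l : ℕ} (hl : l.Prime) (h2 : l ≠ 2) (ha : Odd a) (h1 : 1 < a) (hq : 1 ≤ q)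
    (h : orderOf (q : ZMod l) = a) :
    (∀ k, l ∣ q ^ (a * k) - 1) ∧ ¬ l ∣ q - 1 ∧ (∀ j, ¬ l ∣ q ^ j + 1) ∧ ¬ l ∣ q := by
  have f : ∀ n, l ∣ q ^ n - 1 ↔ a ∣ n := fun n => by
    rw [← h, orderOf_dvd_iff_pow_eq_one, ← ZMod.natCast_eq_zero_iff, Nat.cast_sub (Nat.one_le_pow _ _ hq),
      Nat.cast_pow, Nat.cast_one, sub_eq_zero]
  refine ⟨fun k => (f _).2 ⟨k, rfl⟩, fun k => ?_, fun j k => ?_, fun k => ?_⟩
  · exact absurd (Nat.dvd_one.1 ((f 1).1 (by rwa [pow_one]))) (by omega)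
  · have k2 : l ∣ q ^ (2 * j) - 1 := by
      rw [mul_comm, pow_mul, show (q ^ j) ^ 2 - 1 = (q ^ j) ^ 2 - 1 ^ 2 by rfl, Nat.sq_sub_sq]
      exact k.mul_right _
    have k1 := (f j).2 (ha.coprime_two_right.dvd_of_dvd_mul_left ((f _).1 k2))
    have := Nat.one_le_pow j q hq
    rw [show q ^ j + 1 = (q ^ j - 1) + 2 by omega, Nat.dvd_add_right k1] at k
    exact h2 ((Nat.prime_dvd_prime_iff_eq hl Nat.prime_two).1 k)
  · have k1 := (f a).2 dvd_rfl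
    have k2 : l ∣ q ^ a := dvd_pow k (by omega)
    have := Nat.one_le_pow a q hq
    rw [show q ^ a = (q ^ a - 1) + 1 by omega, Nat.dvd_add_right k1] at k2
    exact hl.not_dvd_one k2

end CL.DG4.NT2
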