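/-
S4984, block PT: the parameters of the collinearity graph on singular points.
-/
import Cfsg.Agent.CLAS.DG4.Cnt

set_option autoImplicit false

namespace CL.DG4.PTb

open Cfsg CL.Witt CL.Zel Module Submodule

variable {F V : Type} [Field F] [Fintype F] [DecidableEq F] [AddCommGroup V] [Module F V]
  [Finite V] {T : FormType F} {f : Form T V} {r e a : ℕ}

omit [Fintype F] [DecidableEq F] in
theorem finPt : Finite (Pt f) :=
  have : Finite (Submodule F V) := .of_injective _ SetLike.coe_injective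
  inferInstance

omit [Fintype F] [DecidableEq F] [Finite V] in
theorem gen (W : Pt f) : ∃ x, x ≠ 0 ∧ f.q x = 0 ∧ W.1 = F ∙ x := by
  obtain ⟨⟨x, hx⟩, x0, sp⟩ := (finrank_eq_one_iff' (K := F) (V := W.1)).1 W.2.1
  refine ⟨x, fun k => x0 (Subtype.ext k), W.2.2.1 x hx, le_antisymm (fun v hv => ?_) ((span_singleton_le_iff_mem _ _).2 hx)⟩
  obtain ⟨c, e⟩ := sp ⟨v, hv⟩
  exact mem_span_singleton.2 ⟨c, congrArg Subtype.val e⟩

omit [DecidableEq F] in
/-- singular points and singular vectors of a subspace -/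
theorem pts (A : Submodule F V) : {Y : Pt f | Y.1 ≤ A}.ncard * (Fintype.card F - 1) + 1 =
    Nat.card {v // f.q v = 0 ∧ v ∈ A} := by
  have := finPt (f := f)
  have := Fintype.ofFinite {Y : Pt f | Y.1 ≤ A}
  have c' := Set.ncard_sdiff_singleton_add_one (s := {v | f.q v = 0 ∧ v ∈ A}) (a := 0) ⟨f.q_zero, zero_mem A⟩
  rw [show Nat.card {v // f.q v = 0 ∧ v ∈ A} = _ from c'.symm, ← Nat.card_coe_set_eq, ← Nat.card_coe_set_eq,
    ← Nat.card_congr (Equiv.sigmaFiberEquiv fun v : ({v | f.q v = 0 ∧ v ∈ A} \ {0} : Set V) =>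
    (⟨⟨F ∙ v.1, finrank_span_singleton v.2.2, f.totSing_span_singleton v.2.1.1⟩,
      (span_singleton_le_iff_mem _ _).2 v.2.1.2⟩ : {Y : Pt f | Y.1 ≤ A})), Nat.card_sigma,
    Finset.sum_const_nat (m := Fintype.card F - 1) fun W _ => ?_, Nat.card_eq_fintype_card, Finset.card_univ]
  rw [← Nat.card_eq_fintype_card, ← show Nat.card W.1.1 = Nat.card F by rw [card_submodule_eq_pow, W.1.2.1, pow_one],
    ← card_subtype_ne_zero]
  refine (Nat.card_congr (Equiv.ofBijective (fun w : {w : W.1.1 // w ≠ 0} =>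
    ⟨⟨w.1, ⟨W.1.2.2.1 _ w.1.2, W.2 w.1.2⟩, by simpa using w.2⟩,
    Subtype.ext (Subtype.ext (eq_of_le_of_finrank_eq ((span_singleton_le_iff_mem _ _).2 w.1.2)
      ((finrank_span_singleton (by simpa using w.2)).trans W.1.2.1.symm)))⟩) ⟨fun w w' e => ?_, ?_⟩)).symm
  · exact Subtype.ext (Subtype.ext (congrArg (·.1.1) e))
  · rintro ⟨v, rfl⟩
    exact ⟨⟨⟨v.1, mem_span_singleton_self _⟩, by simpa using v.2.2⟩, rfl⟩

theorem sing (h : Ty f r e) : Nat.card {v // f.q v = 0} = np (Fintype.card F) r e + 1 := by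
  rw [← h.card_sing, show Nat.card {v // v ≠ 0 ∧ f.q v = 0} = ({v | f.q v = 0} \ {0} : Set V).ncard from
    Nat.card_congr (Equiv.subtypeEquivRight fun v => and_comm),
    Set.ncard_sdiff_singleton_add_one (s := {v | f.q v = 0}) f.q_zero]
  rfl

/-- singular vectors orthogonal to a totally singular subspace -/
theorem prp (h : Ty f r e) {W : Submodule F V} (hW : f.TotSing W) (d : finrank F W = a) :
    Nat.card {v // f.q v = 0 ∧ v ∈ f.perp W} = Fintype.card F ^ a * (np (Fintype.card F) (r - a) e + 1) := by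
  obtain ⟨x, x', hx, rfl⟩ := h.1.exists_isHyp_of_totSing hW d
  have pu := fun u : UU f x x' => hx.mem_perp_span.1 u.2
  have ms : ∀ c : Fin a → F, ∑ i, c i • x i ∈ span F (Set.range x) := fun c =>
    sum_mem fun i _ => smul_mem _ _ (subset_span ⟨i, rfl⟩)
  have qq : ∀ (c : Fin a → F) (u : UU f x x'), f.q (∑ i, c i • x i + u) = f.q u := fun c u => by
    rw [f.q_add_of_B_eq_zero (by simp [pu]), hW.1 _ (ms c), zero_add]
  rw [← sing (h.ty_UU hx), show Fintype.card F ^ a = Nat.card (Fin a → F) by simp, ← Nat.card_prod]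
  refine (Nat.card_congr (Equiv.ofBijective
    (fun p : (Fin a → F) × {u : UU f x x' // (f.restrict (UU f x x')).q u = 0} =>
      ⟨∑ i, p.1 i • x i + p.2.1, (qq _ _).trans p.2.2, add_mem (hW.le_perp (ms _))
        (f.mem_perp_span.2 (by rintro _ ⟨i, rfl⟩; exact (pu _).1 i))⟩) ⟨fun p p' e => ?_, fun v => ?_⟩)).symm
  · have e' : ∑ i, p.1 i • x i + p.2.1 = ∑ i, p'.1 i • x i + p'.2.1 := congrArg Subtype.val e
    have : p.1 = p'.1 := by
      ext i
      simpa [hx.B_pair', pu, T.ε_ne_zero] using congrArg (f.B (x' i)) e'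
    exact Prod.ext this (Subtype.ext (Subtype.ext (by simpa [this] using e')))
  · have p := hx.sub_mem_perp v.1
    have z : ∀ i, f.B (x i) v.1 = 0 := fun i => v.2.2 _ (subset_span ⟨i, rfl⟩)
    simp only [z, zero_smul, Finset.sum_const_zero, add_zero] at p
    refine ⟨(fun i => T.ε * f.B (x' i) v.1, ⟨⟨_, p⟩, ?_⟩), Subtype.ext (add_sub_cancel _ _)⟩
    exact (qq (fun i => T.ε * f.B (x' i) v.1) ⟨_, p⟩).symm.trans ((congrArg f.q (add_sub_cancel _ _)).trans v.2.1)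

theorem k (h : Ty f r e) (W : Pt f) :
    Nat.card {Y : Pt f // W ≠ Y ∧ Y.1 ≤ f.perp W.1} * (Fintype.card F - 1) =
      Fintype.card F * np (Fintype.card F) (r - 1) e := by
  have := finPt (f := f)
  have c := pts (f := f) (f.perp W.1)
  rw [prp h W.2.2 W.2.1, ← Set.ncard_sdiff_singleton_add_one (a := W) W.2.2.le_perp] at c
  rw [show Nat.card {Y : Pt f // W ≠ Y ∧ Y.1 ≤ f.perp W.1} = ({Y : Pt f | Y.1 ≤ f.perp W.1} \ {W}).ncard from
    Nat.card_congr (Equiv.subtypeEquivRight fun v => ⟨fun q => ⟨q.2, q.1.symm⟩, fun q => ⟨Ne.symm q.2, q.1⟩⟩)]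
  obtain ⟨m, hm⟩ := Nat.exists_eq_add_of_le' (Fintype.card_pos (α := F))
  rw [hm, Nat.add_sub_cancel] at c ⊢
  nlinarith

theorem lam (h : Ty f r e) (W W' : Pt f) (ne : W ≠ W') (le : W'.1 ≤ f.perp W.1) :
    Nat.card {Y : Pt f // (W ≠ Y ∧ Y.1 ≤ f.perp W.1) ∧ (W' ≠ Y ∧ Y.1 ≤ f.perp W'.1)} * (Fintype.card F - 1) =
      (Fintype.card F - 1) * (Fintype.card F - 1) + Fintype.card F ^ 2 * np (Fintype.card F) (r - 2) e := by
  have := finPt (f := f)
  obtain ⟨y, y0, qy, ey⟩ := gen W'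
  have yW : y ∉ W.1 := fun q => ne (Subtype.ext (eq_of_le_of_finrank_eq
    (ey ▸ (span_singleton_le_iff_mem _ _).2 q : W'.1 ≤ W.1) (W'.2.1.trans W.2.1.symm)).symm)
  have ts : f.TotSing (W.1 ⊔ W'.1) := ey ▸ W.2.2.sup_span qy (le (ey ▸ mem_span_singleton_self y))
  have c := pts (f := f) (f.perp (W.1 ⊔ W'.1))
  rw [prp (a := 2) h ts (by rw [ey, finrank_sup_span_singleton yW, W.2.1]),
    ← Set.ncard_sdiff_singleton_add_one (s := {Y : Pt f | Y.1 ≤ f.perp (W.1 ⊔ W'.1)}) (a := W)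
      (show W.1 ≤ _ from le_sup_left.trans ts.le_perp),
    ← Set.ncard_sdiff_singleton_add_one (s := {Y : Pt f | Y.1 ≤ f.perp (W.1 ⊔ W'.1)} \ {W}) (a := W')
      ⟨show W'.1 ≤ _ from le_sup_right.trans ts.le_perp, ne.symm⟩, f.perp_sup] at c
  rw [show Nat.card {Y : Pt f // (W ≠ Y ∧ Y.1 ≤ f.perp W.1) ∧ (W' ≠ Y ∧ Y.1 ≤ f.perp W'.1)} =
      (({Y : Pt f | Y.1 ≤ f.perp W.1 ⊓ f.perp W'.1} \ {W}) \ {W'}).ncard from
    Nat.card_congr (Equiv.subtypeEquivRight fun v => ⟨fun q => ⟨⟨le_inf q.1.2 q.2.2, q.1.1.symm⟩, q.2.1.symm⟩,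
      fun q => ⟨⟨Ne.symm q.1.2, (le_inf_iff.1 q.1.1).1⟩, Ne.symm q.2, (le_inf_iff.1 q.1.1).2⟩⟩)]
  obtain ⟨m, hm⟩ := Nat.exists_eq_add_of_le' (Fintype.card_pos (α := F))
  rw [hm, Nat.add_sub_cancel] at c ⊢
  nlinarith

theorem mu (h : Ty f r e) (W W' : Pt f) (nle : ¬ W'.1 ≤ f.perp W.1) :
    Nat.card {Y : Pt f // (W ≠ Y ∧ Y.1 ≤ f.perp W.1) ∧ (W' ≠ Y ∧ Y.1 ≤ f.perp W'.1)} * (Fintype.card F - 1) =
      np (Fintype.card F) (r - 1) e := by
  obtain ⟨x, x0, qx, ex⟩ := gen W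
  obtain ⟨y, y0, qy, ey⟩ := gen W'
  have b : f.B x y ≠ 0 := fun q => nle (by
    rw [ex, ey]; exact (span_singleton_le_iff_mem _ _).2 (f.mem_perp_span_singleton.2 q))
  have hx := f.isHyp_unique (ι := Fin 1) qx (f.q_smul_eq_zero qy (f.B x y)⁻¹) (by
    rw [f.B_smul_right, inv_mul_cancel₀ b])
  have eU : f.perp W.1 ⊓ f.perp W'.1 = UU f (fun _ : Fin 1 => x) fun _ => (f.B x y)⁻¹ • y := by
    ext v
    rw [hx.mem_perp_span, mem_inf, ex, ey, f.mem_perp_span_singleton, f.mem_perp_span_singleton]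
    simp [b]
  have c := pts (f := f) (f.perp W.1 ⊓ f.perp W'.1)
  have s := sing (h.ty_UU hx)
  rw [← eU, show Nat.card {v // (f.restrict (f.perp W.1 ⊓ f.perp W'.1)).q v = 0} =
    Nat.card {v // f.q v = 0 ∧ v ∈ f.perp W.1 ⊓ f.perp W'.1} from Nat.card_congr
      ⟨fun v => ⟨v.1.1, v.2, v.1.2⟩, fun v => ⟨⟨v.1, v.2.2⟩, v.2.1⟩, fun _ => rfl, fun _ => rfl⟩, ← c] at s
  rw [← Nat.add_right_cancel s]
  congr 1
  refine Nat.card_congr (Equiv.subtypeEquivRight fun v => ⟨fun q => le_inf q.1.2 q.2.2, fun q => ?_⟩)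
  have q1 : v.1 ≤ f.perp W.1 := le_trans q inf_le_left
  have q2 : v.1 ≤ f.perp W'.1 := le_trans q inf_le_right
  exact ⟨⟨fun z => nle (f.le_perp_comm.1 (z ▸ q2)), q1⟩, fun z => nle (z ▸ q1), q2⟩

end CL.DG4.PTb
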