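/-
S4984, block XH, part 2: the hypotheses of the norm-two Hecke lemma for a maximal parabolic.
-/
import Cfsg.Agent.CLAS.DG4.Van
import Cfsg.Agent.CLAS.DG4.H2
import Cfsg.Agent.CLAS.DG4.GeoB

set_option autoImplicit false
set_option linter.unusedSectionVars false

namespace CL.DG4.XH2

open Cfsg CL.Witt CL.Zel Module Submodule
open scoped ComplexConjugate

variable {F V : Type} [Field F] [Fintype F] [DecidableEq F] [AddCommGroup V] [Module F V]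
  [Finite V] {T : FormType F} {f : Form T V} {r e a : ℕ}

theorem memP {x : Fin a → V} {g : f.O} : g ∈ PP f x ↔ ∀ v, v ∈ span F (Set.range x) ↔ g.1 v ∈ span F (Set.range x) :=
  ⟨fun h => h.2, fun h => ⟨g.2, h⟩⟩

theorem map_span {x y : Fin a → V} {g : f.O} (h : ∀ i, g.1 (x i) ∈ span F (Set.range y)) {v : V}
    (hv : v ∈ span F (Set.range x)) : g.1 v ∈ span F (Set.range y) :=
  (span_le (p := (span F (Set.range y)).comap (g.1 : V →ₗ[F] V))).2 (by rintro _ ⟨i, rfl⟩; exact h i) hv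

theorem memP' {x : Fin a → V} {g : f.O} (h : ∀ i, g.1 (x i) ∈ span F (Set.range x)) : g ∈ PP f x :=
  f.mem_stab_iff_le.2 ⟨g.2, fun _ => map_span h⟩

theorem w1 (c : Par f a) (i : Fin a) : c.w.1 (c.x i) ∈ span F (Set.range c.x') := c.hw₁ i ▸ subset_span ⟨i, rfl⟩

theorem w2 (c : Par f a) (i : Fin a) : c.w.1 (c.x' i) ∈ span F (Set.range c.x) :=
  c.hw₂ i ▸ smul_mem _ _ (subset_span ⟨i, rfl⟩)

theorem ww (c : Par f a) : c.w * c.w ∈ c.P ⊓ PP f c.x' :=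
  ⟨memP' fun i => map_span (w2 c) (w1 c i), memP' fun i => map_span (w1 c) (w2 c i)⟩

theorem a1 (c : Par f a) (v : V) : v ∈ span F (Set.range c.x) ↔ c.w.1 v ∈ span F (Set.range c.x') :=
  ⟨map_span (w1 c), fun h => (memP.1 (ww c).1 v).2 (map_span (w2 c) h)⟩

theorem a2 (c : Par f a) (v : V) : v ∈ span F (Set.range c.x') ↔ c.w.1 v ∈ span F (Set.range c.x) :=
  ⟨map_span (w2 c), fun h => (memP.1 (ww c).2 v).2 (map_span (w1 c) h)⟩

theorem wi (g : f.O) (v : V) : g.1 ((g⁻¹).1 v) = v := g.1.apply_symm_apply v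

theorem iw (g : f.O) (v : V) : (g⁻¹).1 (g.1 v) = v := g.1.symm_apply_apply v

theorem b1 (c : Par f a) (v : V) : v ∈ span F (Set.range c.x) ↔ (c.w⁻¹).1 v ∈ span F (Set.range c.x') := by
  rw [a2 c, wi]

theorem b2 (c : Par f a) (v : V) : v ∈ span F (Set.range c.x') ↔ (c.w⁻¹).1 v ∈ span F (Set.range c.x) := by
  rw [a1 c, wi]

theorem w_notMem (c : Par f a) (ha : 1 ≤ a) : c.w ∉ c.P := fun h => by
  have h1 := (memP.1 h _).1 (subset_span ⟨⟨0, ha⟩, rfl⟩)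
  rw [c.hw₁] at h1
  have h2 : c.x ⟨0, ha⟩ ∈ f.perp (span F (Set.range c.x)) :=
    f.mem_perp_span.2 (by rintro _ ⟨i, rfl⟩; exact c.hyp.B_left _ _)
  have h3 := c.hyp.B_pair ⟨0, ha⟩ ⟨0, ha⟩
  rw [f.mem_perp'.1 h2 _ h1, if_pos rfl] at h3
  exact zero_ne_one h3

theorem LU (c : Par f a) {g : f.O} (hg : g ∈ c.P ⊓ PP f c.x') {u : V} (hu : u ∈ c.U) : g.1 u ∈ c.U := by
  have k : ∀ {x : Fin a → V}, g ∈ PP f x → (∀ i, f.B (x i) u = 0) → ∀ i, f.B (x i) (g.1 u) = 0 := fun {x} h h0 i => by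
    have h1 : u ∈ f.perp (span F (Set.range x)) := f.mem_perp_span.2 (by rintro _ ⟨i, rfl⟩; exact h0 i)
    rw [← wi g (x i), f.O_B]
    exact h1 _ ((memP.1 (inv_mem h) _).1 (subset_span ⟨i, rfl⟩))
  exact c.hyp.mem_perp_span.2 ⟨k hg.1 (c.hyp.mem_perp_span.1 hu).1, k hg.2 (c.hyp.mem_perp_span.1 hu).2⟩

theorem Lτ (c : Par f a) (g : c.P) (hg : g.1 ∈ PP f c.x') (u : c.U) : ((c.τ g).1 u : V) = g.1.1 u :=
  (sub_eq_zero.1 (GeoB.eq_zero c (sub_mem (LU c ⟨g.2, hg⟩ u.2) (Subtype.coe_prop _)) (c.hτ g u))).symm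

theorem ρ_eq (c : Par f a) (g : c.P) {A : GL (Fin a) F} (h : ∀ j, g.1.1 (c.x j) = ∑ i, A.1 i j • c.x i) : c.ρ g = A := by
  ext i j
  exact Fintype.linearIndependent_iffₛ.1 c.hyp.linearIndependent_left _ _ ((c.hρ g j).symm.trans (h j)) i

theorem dis (c : Par f a) (g : c.P) (hg : g.1 ∈ PP f c.x') (h1 : c.ρ g = 1) (h2 : c.τ g = 1) : g.1 = 1 := by
  have k1 : ∀ j, g.1.1 (c.x j) = c.x j := fun j => by
    rw [c.hρ, h1]; simp [Matrix.one_apply, ite_smul]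
  have k2 : ∀ j, g.1.1 (c.x' j) = c.x' j := fun j => by
    have m : g.1.1 (c.x' j) - c.x' j ∈ span F (Set.range c.x') :=
      sub_mem ((memP.1 hg _).1 (subset_span ⟨j, rfl⟩)) (subset_span ⟨j, rfl⟩)
    refine sub_eq_zero.1 ((Submodule.disjoint_def.1 c.hyp.isCompl.disjoint) _
      (span_mono (by rintro _ ⟨i, rfl⟩; exact ⟨Sum.inr i, rfl⟩) m) (c.hyp.mem_perp_span.2 ⟨fun i => ?_, fun i => ?_⟩))
    · rw [map_sub, sub_eq_zero]
      conv_lhs => rw [← k1 i, f.O_B]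
    · exact f.mem_perp'.1 (f.mem_perp_span.2 (by rintro _ ⟨i, rfl⟩; exact c.hyp.B_right _ _)) _ m
  refine Subtype.ext (LinearEquiv.ext fun v => ?_)
  have h3 := Lτ c g hg ⟨_, c.hyp.sub_mem_perp v⟩
  rw [h2] at h3
  simp only [map_sub, map_add, map_sum, map_smul, k1, k2] at h3
  exact (sub_left_injective h3).symm

theorem h2geo (h : Ty f r e) (c : Par f a) (ha : 1 ≤ a) {θ : GL (Fin a) F → ℂ} {ψ : c.fU.O → ℂ}
    (hθ : Cu θ) (hl : Lin θ) (hε : T = .alt F → θ (-1) = 1) (hψ : IsIrrCharacter _ ψ)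
    (hiv : IV c.fU a θ ψ) : ∃ χ₁ χ₂ t₁ t₂, H2Out c.P c.Q c.w (c.phi θ ψ) χ₁ χ₂ t₁ t₂ := by
  have := GeoB.finO f
  have ch : ∀ {H : Type} [Group H] {χ : H → ℂ}, IsIrrCharacter H χ → IsCharacter H χ :=
    fun ⟨n, ρ, _, hρ⟩ => ⟨n, ρ, hρ⟩
  have t1 : θ 1 = 1 := (hl.2 1).resolve_right fun e => by
    have := hl.1 1 1
    rw [mul_one, e] at this
    norm_num at this
  have K : ∀ n : c.P, θ (c.ρ n) = 1 → c.τ n = 1 → ∀ x : c.P, extendByZero c.P (c.phi θ ψ) (n * x) = c.phi θ ψ x :=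
    fun n h1 h2 x => by
      rw [← Subgroup.coe_mul, CL.Char.extendByZero_coe, Par.phi, map_mul, map_mul, hl.1, h1, h2, one_mul, one_mul]; rfl
  have hT : T.σ = RingHom.id F := by rcases h.2.1 with c | c <;> rw [c.1] <;> rfl
  have wL : ∀ l ∈ c.P ⊓ PP f c.x', c.w * l * c.w⁻¹ ∈ c.P ⊓ PP f c.x' ∧ c.w⁻¹ * l * c.w ∈ c.P ⊓ PP f c.x' := fun l hl =>
    ⟨⟨memP.2 fun v => (b1 c v).trans ((memP.1 hl.2 _).trans (a2 c _)),
      memP.2 fun v => (b2 c v).trans ((memP.1 hl.1 _).trans (a1 c _))⟩,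
      memP.2 fun v => (a1 c v).trans ((memP.1 hl.2 _).trans (b2 c _)),
      memP.2 fun v => (a2 c v).trans ((memP.1 hl.1 _).trans (b1 c _))⟩
  refine h2 (L := c.P ⊓ PP f c.x') (c.phi_irr hθ.1 hψ) (Subgroup.map_subtype_le _) inf_le_left ?_ ?_ ?_ ?_ wL
    (fun x hx h1 => ⟨hx, memP.2 fun v => ?_⟩) (w_notMem c ha) (ww c) (K ⟨_, (ww c).1⟩ ?_ ?_) (fun l hl' => ?_)
    fun g hg hn => c.van_nonopp h hθ (ch hψ) hiv hg fun ho => hn ((c.opp_iff h g).1 ho)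
  · rintro x hx _ ⟨u, hu, rfl⟩
    exact ⟨_, Subgroup.Normal.conj_mem inferInstance u hu ⟨x, hx⟩, rfl⟩
  · rintro _ ⟨u, hu, rfl⟩
    exact K u (by rw [show c.ρ u = 1 from hu.1, t1]) hu.2
  · intro x hx
    obtain ⟨l, h1, h2, h3, -⟩ := c.lev (c.ρ ⟨x, hx⟩) (c.τ ⟨x, hx⟩)
    exact ⟨_, ⟨⟨x, hx⟩ * l⁻¹, ⟨by simp [h1], by simp [h2]⟩, rfl⟩, l, ⟨l.2, memP' h3⟩, by simp⟩
  · rintro _ ⟨u, hu, rfl⟩ hL
    exact dis c u hL.2 hu.1 hu.2
  · refine (b2 c v).trans ((memP.1 h1 _).trans ?_)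
    change (c.w⁻¹).1 (x.1 (c.w.1 _)) ∈ _ ↔ _
    rw [wi, ← b2]
  · have e : ∀ j, (c.w * c.w).1 (c.x j) = T.ε • c.x j := fun j => by
      change c.w.1 (c.w.1 _) = _
      rw [c.hw₁, c.hw₂]
    rcases h.2.1 with k | k
    · rw [ρ_eq c _ (A := -1) fun j => by
        rw [e, show T.ε = -1 from congrArg FormType.ε k.1]; simp [Matrix.one_apply, ite_smul], hε k.1]
    · rw [ρ_eq c _ (A := 1) fun j => by
        rw [e, show T.ε = 1 from congrArg FormType.ε k.1]; simp [Matrix.one_apply, ite_smul], t1]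
  · refine Subtype.ext (LinearEquiv.ext fun u => Subtype.ext ?_)
    rw [Lτ c _ (ww c).2]
    change c.w.1 (c.w.1 _) = _
    rw [c.hw₃ _ u.2, c.hw₃ _ u.2]; rfl
  · have m := (wL l hl').2
    refine K (⟨_, m.1⟩ * (⟨l, hl'.1⟩ : c.P)⁻¹) ?_ ?_
    · have e : (c.ρ ⟨_, m.1⟩).1.transpose * (c.ρ ⟨l, hl'.1⟩).1 = 1 := by
        ext j k
        have e1 : l.1 (c.x' j) = ∑ i, (c.ρ ⟨_, m.1⟩).1 i j • c.x' i := by
          have := congrArg c.w.1 (c.hρ ⟨_, m.1⟩ j)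
          simp only [map_sum, map_smul, c.hw₁] at this
          rw [← this, ← c.hw₁]
          exact (wi c.w _).symm
        have e2 := f.O_B l (c.x k) (c.x' j)
        rw [e1, c.hρ ⟨l, hl'.1⟩] at e2
        simp only [map_sum, LinearMap.sum_apply, f.B_smul_left, f.B_smul_right, c.hyp.B_pair, hT, RingHom.id_apply,
          mul_ite, mul_one, mul_zero, Finset.sum_ite_eq, Finset.sum_ite_eq', Finset.mem_univ, if_true] at e2
        rw [Matrix.mul_apply, Matrix.one_apply, ← if_congr eq_comm rfl rfl, ← e2]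
        exact Finset.sum_congr rfl fun i _ => by rw [Matrix.transpose_apply]; ring
      rw [map_mul, hl.1, theta_inv_transpose (ch hθ.1) e, map_inv]
      have := hl.1 (c.ρ ⟨l, hl'.1⟩) (c.ρ ⟨l, hl'.1⟩)⁻¹
      rw [mul_inv_cancel, t1] at this
      rw [this]
      rcases hl.2 (c.ρ ⟨l, hl'.1⟩) with k | k <;> simp [k]
    · rw [map_mul, map_inv, mul_inv_eq_one]
      refine Subtype.ext (LinearEquiv.ext fun u => Subtype.ext ?_)
      rw [Lτ c _ m.2, Lτ c _ hl'.2]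
      change (c.w⁻¹).1 (l.1 (c.w.1 u)) = l.1 u
      rw [c.hw₃ _ u.2, ← c.hw₃ _ (LU c hl' u.2), iw, c.hw₃ _ (LU c hl' u.2)]

end CL.DG4.XH2
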